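import Mathlib

/-! Arithmetic of Brauer's order relations in the unitary case. -/

set_option autoImplicit false

namespace H73.U

theorem div_cases {q d : ℤ} (hq : 5 ≤ q) (h1 : d ∣ q ^ 2 - 1) (h2 : q ∣ d - 1) :
    d = 1 ∨ d = 1 - q ^ 2 ∨ d = q + 1 ∨ d = 1 - q := by
  obtain ⟨e, he⟩ := h1
  obtain ⟨t, ht⟩ := h2
  obtain rfl : d = 1 + q * t := by linarith
  obtain ⟨s, rfl⟩ : ∃ s, e = q * s - 1 := ⟨q - t * e, by linear_combination -he⟩
  have h : s - t + q * (t * s) = q :=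
    mul_left_cancel₀ (by omega : q ≠ 0) (by linear_combination -he)
  rcases lt_trichotomy t 0 with h1 | rfl | h1
  · rcases lt_trichotomy s 0 with h2 | rfl | h2
    · have : t = -1 := by nlinarith [mul_nonneg (by omega : 0 ≤ -t - 1) (by omega : 0 ≤ -s - 1)]
      subst this; right; right; right; ring
    · have : t = -q := by linarith
      subst this; right; left; ring
    · nlinarith [mul_nonneg (by omega : 0 ≤ -t - 1) (by omega : 0 ≤ s - 1)]
  · simp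
  · rcases lt_trichotomy s 0 with h2 | rfl | h2
    · nlinarith [mul_nonneg (by omega : 0 ≤ t - 1) (by omega : 0 ≤ -s - 1)]
    · omega
    · have : t = 1 := by nlinarith [mul_nonneg (by omega : 0 ≤ t - 1) (by omega : 0 ≤ s - 1)]
      subst this; right; right; left; ring

theorem cop_c (q : ℤ) : IsCoprime q ((q + 1) * (q - 1) ^ 2) := by
  refine IsCoprime.mul_right ⟨-1, 1, by ring⟩ (IsCoprime.pow_right ⟨1, -1, by ring⟩)

/-- The regular case. -/
theorem reg_arith {p f : ℕ} (hp : p.Prime) {q k a b : ℤ} (hq : q = p ^ f) (h4 : q % 4 = 1)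
    (hf : 0 < f) (hk : q ^ 2 ∣ k) (h1 : k * (a + q) ^ 2 = q * ((q + 1) * (q - 1) ^ 2) * (a * (a - 1)))
    (h2 : (a - q ^ 2) * (b - q ^ 2) = q ^ 2 * (q ^ 2 - 1)) (a0 : a ≠ 0) (a1 : a ≠ 1)
    (h8 : 8 ∣ a + q) : a = -q ^ 3 := by
  have hp1 : (2 : ℤ) ≤ p := by exact_mod_cast hp.two_le
  have hq2 : 2 ≤ q := by rw [hq]; exact hp1.trans (le_self_pow₀ (by omega) hf.ne')
  have hq5 : 5 ≤ q := by omega
  have q0 : q ≠ 0 := by omega
  obtain ⟨k, rfl⟩ := hk
  obtain ⟨r, hr⟩ : ∃ r, q = 4 * r + 1 := ⟨q / 4, by omega⟩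
  have h3 : q ∣ a * (a - 1) := (cop_c q).dvd_of_dvd_mul_left ⟨k * (a + q) ^ 2,
    mul_left_cancel₀ q0 (by linear_combination -h1)⟩
  have h5 : q ∣ a ∨ q ∣ a - 1 := by
    have hp' : Prime (p : ℤ) := Nat.prime_iff_prime_int.1 hp
    by_cases h : (p : ℤ) ∣ a
    · left
      refine IsCoprime.dvd_of_dvd_mul_right ?_ h3
      rw [hq]
      obtain ⟨c, rfl⟩ := h
      exact IsCoprime.pow_left ⟨c, -1, by ring⟩
    · right
      refine IsCoprime.dvd_of_dvd_mul_left ?_ h3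
      rw [hq]
      exact IsCoprime.pow_left ((Prime.coprime_iff_not_dvd hp').2 h)
  rcases h5 with ⟨c, rfl⟩ | ⟨c, hc⟩
  · have h6 : q ^ 2 ∣ c := by
      refine IsCoprime.dvd_of_dvd_mul_left (y := (q + 1) * (q - 1) ^ 2 * (q * c - 1))
        (IsCoprime.pow_left ((cop_c q).mul_right ⟨c, -1, by ring⟩)) ⟨k * (c + 1) ^ 2, ?_⟩
      exact mul_left_cancel₀ (pow_ne_zero 2 q0) (by linear_combination -h1)
    obtain ⟨c, rfl⟩ := h6
    have h7 : 1 - q * c ∣ q ^ 2 - 1 := ⟨q ^ 2 - b, mul_left_cancel₀ (pow_ne_zero 2 q0)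
      (by linear_combination -h2)⟩
    rcases div_cases hq5 h7 ⟨-c, by ring⟩ with e | e | e | e
    · have : c = 0 := mul_left_cancel₀ q0 (by linear_combination -e)
      simp [this] at a0
    · have : c = q := mul_left_cancel₀ q0 (by linear_combination -e)
      subst this
      obtain ⟨y, hy⟩ := h8
      have : 2 * y * 4 = 4 * (64 * r ^ 4 + 64 * r ^ 3 + 24 * r ^ 2 + 5 * r) + 2 := by
        rw [hr] at hy; linear_combination -hy
      omega
    · have : c = -1 := mul_left_cancel₀ q0 (by linear_combination -e)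
      subst this; ring
    · have : c = 1 := mul_left_cancel₀ q0 (by linear_combination -e)
      subst this
      obtain ⟨y, hy⟩ := h8
      have : 2 * y * 4 = 4 * (16 * r ^ 3 + 12 * r ^ 2 + 4 * r) + 2 := by
        rw [hr] at hy; linear_combination -hy
      omega
  · exfalso
    have h7 : a - q ^ 2 ∣ q ^ 2 - 1 := by
      refine IsCoprime.dvd_of_dvd_mul_left (y := q ^ 2) (IsCoprime.pow_right ⟨1, q - c, ?_⟩)
        ⟨_, h2.symm⟩
      linear_combination hc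
    obtain ⟨y, hy⟩ := h8
    rcases div_cases hq5 h7 ⟨c - q, by linear_combination hc⟩ with e | e | e | e
    · have : 2 * (4 * y) = 2 * (8 * r ^ 2 + 6 * r + 1) + 1 := by
        rw [hr] at hy e; linear_combination e - hy
      omega
    · exact a1 (by linear_combination e)
    · have : 8 * y = 8 * (2 * r * r + 2 * r) + 4 := by
        rw [hr] at hy e; linear_combination e - hy
      omega
    · have : 8 * y = 8 * (2 * r * r + r) + 2 := by
        rw [hr] at hy e; linear_combination e - hy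
      omega

theorem reg_order {q k : ℤ} (hq : 2 ≤ q)
    (h1 : k * (-q ^ 3 + q) ^ 2 = q * ((q + 1) * (q - 1) ^ 2) * (-q ^ 3 * (-q ^ 3 - 1))) :
    k * (q + 1) = q ^ 2 * (q ^ 3 + 1) := by
  have : q ^ 2 * (q - 1) ^ 2 * (q + 1) ≠ 0 := by
    have : 0 < q - 1 := by omega
    positivity
  exact mul_left_cancel₀ this (by linear_combination h1)

/-- The irregular case. -/
theorem irr_arith {p f : ℕ} (hp : p.Prime) {q k a b : ℤ} (hq : q = p ^ f) (h4 : q % 4 = 1)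
    (hf : 0 < f) (hk : ¬ (p : ℤ) ∣ k)
    (h1 : k * (a + q) ^ 2 = q * ((q + 1) * (q - 1) ^ 2) * (a * (a - 1)))
    (h2 : (a - q ^ 2) * (b - q ^ 2) = q ^ 2 * (q ^ 2 - 1)) (a0 : a ≠ 0) (h8 : 8 ∣ a + q) :
    ∃ n : ℤ, n ≠ 0 ∧ 8 ∣ n ∧ n + q + 1 ∣ q ^ 2 - 1 ∧
      k * n ^ 2 = (q + 1) * (q - 1) ^ 2 * ((n + 1) * (q * n + q + 1)) := by
  have hp' : Prime (p : ℤ) := Nat.prime_iff_prime_int.1 hp
  have hp1 : (2 : ℤ) ≤ p := by exact_mod_cast hp.two_le
  have hq2 : 2 ≤ q := by rw [hq]; exact hp1.trans (le_self_pow₀ (by omega) hf.ne')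
  have q0 : q ≠ 0 := by omega
  have pq : (p : ℤ) ∣ q := hq ▸ dvd_pow_self _ hf.ne'
  have ck : IsCoprime q k := hq ▸ IsCoprime.pow_left ((Prime.coprime_iff_not_dvd hp').2 hk)
  have h3 : q ∣ a := by
    obtain ⟨v, c, hc, rfl⟩ : ∃ (v : ℕ) (c : ℤ), ¬ (p : ℤ) ∣ c ∧ a = p ^ v * c :=
      WfDvdMonoid.max_power_factor a0 hp'.irreducible
    by_cases hv : f ≤ v
    · exact hq ▸ (pow_dvd_pow _ hv).mul_right _
    exfalso
    obtain ⟨j, rfl⟩ : ∃ j, f = v + (j + 1) := ⟨f - v - 1, by omega⟩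
    have h5 : (p : ℤ) ∣ k * (c + p ^ (j + 1)) ^ 2 := ⟨p ^ j * ((q + 1) * (q - 1) ^ 2) *
        (c * (p ^ v * c - 1)), mul_left_cancel₀ (pow_ne_zero (2 * v) hp'.ne_zero) (by
      rw [hq] at h1 ⊢; linear_combination h1)⟩
    rcases hp'.dvd_or_dvd h5 with h | h
    · exact hk h
    · exact hc ((dvd_add_left (dvd_pow_self _ j.succ_ne_zero)).1 (hp'.dvd_of_dvd_pow h))
  obtain ⟨c, hc⟩ := h3
  obtain ⟨n, rfl⟩ : ∃ n, c = -(n + 1) := ⟨-c - 1, by ring⟩
  subst hc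
  have h5 : k * n ^ 2 = (q + 1) * (q - 1) ^ 2 * ((n + 1) * (q * n + q + 1)) :=
    mul_left_cancel₀ (pow_ne_zero 2 q0) (by linear_combination h1)
  have h6 : ¬ (p : ℤ) ∣ n + 1 := fun h => by
    rcases hp'.dvd_or_dvd (h5 ▸ (h.mul_right _).mul_left _ : (p : ℤ) ∣ k * n ^ 2) with h' | h'
    · exact hk h'
    · exact hp'.not_dvd_one ((dvd_add_right (hp'.dvd_of_dvd_pow h')).1 h)
  refine ⟨n, ?_, ?_, ?_, h5⟩
  · rintro rfl
    have : 0 < q - 1 := by omega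
    have : 0 < (q + 1) * (q - 1) ^ 2 * ((0 + 1) * (q * 0 + q + 1)) := by positivity
    linarith
  · refine IsCoprime.dvd_of_dvd_mul_left (y := -q) ?_ (by
      rwa [show -q * n = q * -(n + 1) + q by ring])
    obtain ⟨r, hr⟩ : ∃ r, q = 4 * r + 1 := ⟨q / 4, by omega⟩
    exact ⟨-(2 * r * r + r), -q, by rw [hr]; ring⟩
  · refine IsCoprime.dvd_of_dvd_mul_left (y := q) ?_ ⟨q ^ 2 - b,
      mul_left_cancel₀ q0 (by linear_combination -h2)⟩
    rw [hq]
    refine IsCoprime.pow_right ((Prime.coprime_iff_not_dvd hp').2 fun h => h6 ?_).symm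
    rw [← hq, add_right_comm] at h
    exact (dvd_add_left pq).1 h

theorem irr_cop {q k n : ℤ} (hq : 2 ≤ q) (h4 : q % 4 = 1) (n0 : n ≠ 0) (hk : IsCoprime k (q - 1))
    (h1 : n + q + 1 ∣ q ^ 2 - 1)
    (h2 : k * n ^ 2 = (q + 1) * (q - 1) ^ 2 * ((n + 1) * (q * n + q + 1))) : q = 5 := by
  obtain ⟨r, rfl⟩ : ∃ r, q = 4 * r + 1 := ⟨q / 4, by omega⟩
  have r1 : 1 ≤ r := by omega
  have h3 : (4 * r + 1 - 1) ^ 2 ∣ n ^ 2 := (IsCoprime.pow_left hk.symm).dvd_of_dvd_mul_left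
    (h2 ▸ ((dvd_mul_left _ _).mul_right _))
  obtain ⟨x, rfl⟩ := (Int.pow_dvd_pow_iff two_ne_zero).1 h3
  have h5 : k * x ^ 2 = 2 * ((2 * r + 1) * ((4 * r * x + 1) * ((4 * r + 1) * (4 * r * x) +
      4 * r + 2))) :=
    mul_left_cancel₀ (pow_ne_zero 2 (by omega : 4 * r ≠ 0)) (by linear_combination h2)
  have h6 : (2 : ℤ) ∣ x := by
    rcases Int.prime_two.dvd_or_dvd ⟨_, h5⟩ with h | h
    · exact absurd (hk.isUnit_of_dvd' h ⟨2 * r, by ring⟩) (by decide)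
    · exact Int.prime_two.dvd_of_dvd_pow h
  obtain ⟨x, rfl⟩ := h6
  obtain ⟨e, he⟩ := h1
  have h7 : 4 * r * x + 2 * r + 1 ∣ 2 * r + 1 := by
    refine IsCoprime.dvd_of_dvd_mul_left (y := 4 * r) ⟨1 - 2 * r, r + x * (2 * r - 1), by ring⟩
      ⟨e, mul_left_cancel₀ two_ne_zero (by linear_combination he)⟩
  have x0 : x ≠ 0 := by rintro rfl; simp at n0
  have h8 := abs_le.1 (Int.le_of_dvd (by omega) ((abs_dvd _ _).2 h7))
  have h9 : x = -1 := by
    rcases lt_or_gt_of_ne x0 with h | h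
    · nlinarith [mul_nonneg (by omega : 0 ≤ r - 1) (by omega : 0 ≤ -x - 1)]
    · nlinarith [mul_nonneg (by omega : 0 ≤ r - 1) (by omega : 0 ≤ x - 1)]
  subst h9
  have h10 : 2 * r - 1 ∣ 2 := by
    have : 2 * r - 1 ∣ 2 * r + 1 := by
      rwa [← neg_dvd, show -(2 * r - 1) = 4 * r * -1 + 2 * r + 1 by ring]
    have h := this.sub (dvd_refl (2 * r - 1))
    rwa [show 2 * r + 1 - (2 * r - 1) = 2 by ring] at h
  have := Int.le_of_dvd two_pos h10
  omega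

theorem irr_five {k n : ℤ} (n0 : n ≠ 0) (h8 : 8 ∣ n) (h1 : n + 5 + 1 ∣ 5 ^ 2 - 1)
    (h2 : k * n ^ 2 = (5 + 1) * (5 - 1) ^ 2 * ((n + 1) * (5 * n + 5 + 1))) : k = 357 := by
  obtain ⟨x, rfl⟩ := h8
  have h8 := abs_le.1 (Int.le_of_dvd (by omega) ((abs_dvd _ _).2 h1))
  have a : -3 ≤ x := by omega
  have b : x ≤ 2 := by omega
  interval_cases x <;> first | omega | exact absurd h1 (by decide)

theorem irr_bound {q k n : ℤ} (hq : 2 ≤ q) (n0 : n ≠ 0) (h8 : 8 ∣ n)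
    (h2 : k * n ^ 2 = (q + 1) * (q - 1) ^ 2 * ((n + 1) * (q * n + q + 1))) :
    16 * k ≤ 27 * (q * (q + 1) ^ 2 * (q - 1)) := by
  have h3 : 16 * ((q - 1) * ((n + 1) * (q * n + q + 1))) ≤ 27 * (q * (q + 1)) * n ^ 2 := by
    have h5 : (n + 1) * (q * n + q + 1) * 16 ≤ 27 * q * n ^ 2 := by
      rcases lt_or_gt_of_ne n0 with h | h
      · have : n ≤ -8 := by omega
        nlinarith [mul_nonneg (by omega : 0 ≤ q) (by omega : 0 ≤ -n - 8), sq_nonneg n,
          mul_nonneg (by omega : 0 ≤ q) (mul_nonneg (by omega : 0 ≤ -n) (by omega : 0 ≤ -n - 8))]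
      · have : 8 ≤ n := by omega
        nlinarith [mul_nonneg (by omega : 0 ≤ q - 2) (by omega : 0 ≤ n - 8),
          mul_nonneg (by omega : 0 ≤ q) (mul_nonneg (by omega : 0 ≤ n) (by omega : 0 ≤ n - 8))]
    nlinarith [mul_le_mul_of_nonneg_left h5 (by omega : 0 ≤ q - 1),
      mul_nonneg (by omega : 0 ≤ q) (sq_nonneg n)]
  have n2 : 0 < n ^ 2 := by positivity
  refine le_of_mul_le_mul_right ?_ n2
  have := mul_le_mul_of_nonneg_left h3 (mul_nonneg (by omega : 0 ≤ q + 1) (by omega : 0 ≤ q - 1))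
  nlinarith

end H73.U
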