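import Cfsg.Agent.Lib.ABG.C.TI
import Cfsg.Agent.Lib.SL2.Klein

/-! An upper bound for the group order from one TI-set. -/

set_option autoImplicit false

open scoped Classical ComplexConjugate BigOperators

namespace H73.U

open Cfsg H51 H46.C H29

variable {G : Type*} [Group G] [Fintype G]

theorem four_val {t u : G} (hp : IsPair t u) (hcl : ∀ v : G, v * v = 1 → v ≠ 1 → IsConj t v)
    {P : G → ℂ} (hP : P ∈ irr (⊤ : Subgroup G)) : ∃ n : ℕ, P 1 + 3 * P t = 4 * n := by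
  obtain ⟨n, hn⟩ := ((irr_isChar hP).res (le_top (a := Subgroup.closure {t, u}))).dot_nat
    (isChar_one _)
  have c : ∀ v : G, v * v = 1 → v ≠ 1 → P v = P t := fun v a b => by
    obtain ⟨g, rfl⟩ := isConj_iff.1 (hcl v a b)
    exact CF_conj (irr_mem_CF hP) trivial t
  have r := hp.rot
  rw [dot, hp.isKleinFour.card_four, ← Finset.sum_subset (Finset.subset_univ {1, t, u, t * u})
    fun x _ hx => by rw [res_of_not_mem _ (by simpa [hp.mem_closure] using hx), zero_mul],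
    Finset.sum_insert (by simp [hp.ne₁.symm, hp.ne₂.symm, r.ne₂.symm]),
    Finset.sum_insert (by simp [hp.ne, hp.ne₂]), Finset.sum_pair r.ne] at hn
  simp only [res_of_mem, one_of_mem, hp.mem_closure, true_or, or_true, map_one, mul_one,
    c u hp.sq₂ hp.ne₂, c _ r.sq₂ r.ne₂] at hn
  exact ⟨n, by linear_combination 4 * hn⟩

theorem one_ti_aux {t u : G} (hp : IsPair t u) (hcl : ∀ v : G, v * v = 1 → v ≠ 1 → IsConj t v)
    {P R : G → ℂ} (hP : P ∈ irr (⊤ : Subgroup G)) (hR : dirr ⊤ R)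
    (a1 : (one ⊤ + P + R : G → ℂ) 1 = 0) (a2 : (one ⊤ + P + R : G → ℂ) t = 0) :
    ∃ σ : ℝ, 9 * σ < 16 ∧ dot ⊤ (one ⊤ + P + R) (H36.pairFun t) =
      ((Subgroup.centralizer ({t} : Set G)).index : ℂ) ^ 2 / Nat.card G * σ := by
  obtain ⟨n, hn⟩ := four_val hp hcl hP
  have hx := irr_apply_one hP
  have x0 : (0 : ℝ) < deg P := by exact_mod_cast irr_deg_pos hP
  have le := (irr_isChar hP).norm_le t
  generalize deg P = x at hx x0 le
  have hc : P t = (((4 * n - x) / 3 : ℝ) : ℂ) := by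
    push_cast; rw [hx] at hn; linear_combination hn / 3
  generalize hce : ((4 * n - x) / 3 : ℝ) = c at hc
  rw [hc, Complex.norm_real, Real.norm_eq_abs] at le
  simp only [Pi.add_apply, one_top, hx, hc] at a1 a2
  have r1 : R 1 = -(x + 1) := by linear_combination a1
  have r2 : R t = -(c + 1) := by linear_combination a2
  refine ⟨(x - c) ^ 2 / (x * (x + 1)), ?_, ?_⟩
  · rw [← mul_div_assoc, div_lt_iff₀ (by positivity)]
    have := (abs_le.1 le).2
    have : (0 : ℝ) ≤ n := n.cast_nonneg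
    nlinarith
  · have n0 : (x : ℂ) ≠ 0 := by exact_mod_cast x0.ne'
    have n1 : (x : ℂ) + 1 ≠ 0 := by exact_mod_cast x.succ_ne_zero
    simp only [dot_add_left, dot_pair_dirr t (dirr_of_irr hP), dot_pair_dirr t hR,
      dot_pair_dirr t (dirr_of_irr (one_mem_irr _))]
    simp only [one_top, r1, r2, hx, hc]
    push_cast
    field_simp
    ring

theorem one_ti {t u : G} (hp : IsPair t u) (hcl : ∀ v : G, v * v = 1 → v ≠ 1 → IsConj t v)
    {C N : Subgroup G} {l : Dual C} (h : DTI C N l) : 9 * (outInv C N).card ^ 2 * Nat.card G <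
      16 * Nat.card C * (Subgroup.centralizer ({t} : Set G)).index ^ 2 := by
  have z : ∀ x, x * x = 1 → th C l x = 0 := fun x hx => DTI.th_zero fun g hg => h.invol _ hg (by
    calc g * x * g⁻¹ * (g * x * g⁻¹) = g * (x * x) * g⁻¹ := by group
      _ = 1 := by rw [hx]; group)
  have key : ∀ P R : G → ℂ, P ∈ irr (⊤ : Subgroup G) → dirr ⊤ R → th C l = one ⊤ + P + R →
      9 * (outInv C N).card ^ 2 * Nat.card G <
        16 * Nat.card C * (Subgroup.centralizer ({t} : Set G)).index ^ 2 := by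
    intro P R hP hR e
    obtain ⟨σ, s1, s2⟩ := one_ti_aux hp hcl hP hR (e ▸ z 1 (one_mul 1)) (e ▸ z t hp.sq₁)
    rw [← e, h.dot_pair hp.sq₁ hcl] at s2
    have s3 : ((outInv C N).card : ℝ) ^ 2 / Nat.card C =
      ((Subgroup.centralizer ({t} : Set G)).index : ℝ) ^ 2 / Nat.card G * σ :=
      Complex.ofReal_injective (by push_cast; exact s2)
    have c1 : (0 : ℝ) < Nat.card C := by exact_mod_cast Nat.card_pos
    have c2 : (0 : ℝ) < Nat.card G := by exact_mod_cast Nat.card_pos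
    have c3 : (0 : ℝ) < (Subgroup.centralizer ({t} : Set G)).index := by
      exact_mod_cast Nat.pos_of_ne_zero Subgroup.FiniteIndex.index_ne_zero
    field_simp at s3
    have : (9 : ℝ) * (outInv C N).card ^ 2 * Nat.card G <
        16 * Nat.card C * (Subgroup.centralizer ({t} : Set G)).index ^ 2 := by
      rw [mul_assoc, s3]
      nlinarith [mul_pos c1 (pow_pos c3 2)]
    exact_mod_cast this
  obtain ⟨P, R, hP, hR, -, -, e⟩ := h.dec
  obtain ⟨y, hy⟩ := vchar_apply_one_int hP.mem_vchar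
  have a := z 1 (one_mul 1)
  simp only [e, Pi.add_apply, one_top, hy] at a
  rcases le_or_gt 0 y with l | l
  · obtain ⟨y, rfl⟩ := Int.eq_ofNat_of_zero_le l
    exact key P R (hP.mem_irr_of_apply_one (n := y) (by simpa using hy)) hR e
  · obtain ⟨x, hx⟩ := Int.eq_ofNat_of_zero_le (show 0 ≤ -1 - y by omega)
    refine key R P (hR.mem_irr_of_apply_one (n := x) ?_) hP (by rw [e]; abel)
    have : (-1 - y : ℂ) = x := by exact_mod_cast hx
    linear_combination a + this

/-- The bound for a central TI-subgroup `A` of `X = C(A)`, inverted by `N \ X`. -/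
theorem ti_central {t u : G} (hp : IsPair t u) (hcl : ∀ v : G, v * v = 1 → v ≠ 1 → IsConj t v)
    {A X N : Subgroup G} (hA : A ≤ X) (hc : ∀ a ∈ A, ∀ x ∈ X, a * x = x * a) (hN : X ≤ N)
    (idx : X.relIndex N = 2) (hinv : ∀ n ∈ N, n ∉ X → ∀ a ∈ A, n * a * n⁻¹ = a⁻¹)
    (ho : Odd (Nat.card A)) (hne : ∃ a ∈ A, a ^ A.relIndex X ≠ 1)
    (hti : ∀ g, ∀ a ∈ A, a ≠ 1 → g * a * g⁻¹ ∈ A → g ∈ N) :
    9 * (outInv X N).card ^ 2 * Nat.card G <
      16 * Nat.card X * (Subgroup.centralizer ({t} : Set G)).index ^ 2 := by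
  have sq : ∀ a ∈ A, a * a = 1 → a = 1 := fun a ha e => orderOf_eq_one_iff.1
    (Nat.Coprime.eq_one_of_dvd (Nat.coprime_two_right.2 (ho.of_dvd_nat
      (Subgroup.orderOf_dvd_natCard A ha))) (orderOf_dvd_of_pow_eq_one (by rwa [pow_two])))
  obtain ⟨a, ha, a1⟩ := hne
  obtain ⟨μ, -, hμ⟩ := exists_lin_apply_ne_one (W := A) bot_le
    (commutator_eq_bot_of_comm fun a ha b hb => hc a ha b (hA hb)).le
    (x := a ^ A.relIndex X * a ^ A.relIndex X) fun e => a1 (sq _ (pow_mem ha _) e)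
  have key : ∀ (x : X) (k : ℕ) (g : X), g⁻¹ * x ^ k * g ∈ A.subgroupOf X →
      g⁻¹ * x ^ k * g = x ^ k := fun x k g hg =>
    Subtype.ext (by simpa [mul_assoc] using (hc _ hg _ g⁻¹.2).symm)
  have pm : ∀ x ∈ X, x ^ A.relIndex X ∈ A := fun x hx =>
    MonoidHom.transfer_eq_pow_aux (H := A.subgroupOf X) ⟨x, hx⟩ (key _)
  let l : Dual X := MonoidHom.transfer (μ.comp (Subgroup.subgroupOfEquivOfLe hA).toMonoidHom)
  have hl : ∀ x ∈ X, lin X l x = lin A μ (x ^ A.relIndex X) := fun x hx => by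
    rw [lin, lin, dif_pos hx, dif_pos (pm x hx), MonoidHom.transfer_eq_pow _ _ (key _)]
    rfl
  refine one_ti (l := l) hp hcl ⟨hN, idx, fun n hn hn' c hc => ?_, fun e => hμ ?_,
    fun g x hx h1 h2 _ => hti g _ (pm x hx) (fun e => h1 ?_) (conj_pow (a := g) ▸ pm _ h2),
    fun s hs s2 => ?_⟩
  · have : n * c * n⁻¹ ∈ X := (Subgroup.normal_of_index_eq_two idx).conj_mem ⟨c, hN hc⟩ hc ⟨n, hn⟩
    rw [hl _ this, hl _ hc, conj_pow, hinv n hn hn' _ (pm c hc), lin_map_inv]
  · rw [lin_map_mul _ (pm a (hA ha)) (pm a (hA ha)), ← hl a (hA ha), ← lin_mul_apply]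
    nth_rw 1 [← e]
    rw [dual_inv_mul, lin_one, one_of_mem (hA ha)]
  · rw [hl x hx, e, lin_apply_one]
  · rw [hl s hs, sq _ (pm s hs) (by rw [← (Commute.refl s).mul_pow, s2, one_pow]), lin_apply_one]

end H73.U
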